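import Cfsg.Agent.H644.T9.Part
import Cfsg.Agent.H644.T9.U3Orb
import Cfsg.Agent.H644.T9.U3Mat
import Cfsg.Agent.H603.Weil.Main
import Cfsg.Agent.LieClassical.SUBasic

/-!
# The Weil character of degree `q² - q` of `PSU₃(q)` (helper644)
-/

set_option autoImplicit false

namespace Cfsg.Agent.H644.T9

open Matrix Cfsg Cfsg.Agent.LieClassical Cfsg.Agent.LieClassical.HermBasic Cfsg.Agent.Characters.Core
  Cfsg.Agent.H603.Weil
open scoped ComplexConjugate

universe u v

section

variable {F : Type v} [Field F] [Fintype F] {q : ℕ}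

/-- the norm one elements -/
abbrev Mu (F : Type v) [Field F] (q : ℕ) : Subgroup Fˣ := (powMonoidHom (q + 1) : Fˣ →* Fˣ).ker

theorem card_mu (hF : Fintype.card F = q ^ 2) : Nat.card (Mu F q) = q + 1 := by
  rw [IsCyclic.card_powMonoidHom_ker, card_units_eq hF]
  exact Nat.gcd_eq_right (Dvd.intro _ rfl)

/-- the form -/
noncomputable def hB (hF : Fintype.card F = q ^ 2) : (Fin 3 → F) →+ (Fin 3 → F) →+ F :=
  AddMonoidHom.mk' (fun u => AddMonoidHom.mk' (fun v => hermForm 3 F q u v) (fun v v' => herm_add_right hF u v v'))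
    (fun u u' => by
      ext v
      exact congrFun (congrArg _ rfl) _ |>.trans (herm_add_left u u' _))

/-- the `q`-power map -/
def sg (hF : Fintype.card F = q ^ 2) : F →+* F := (HermBasic.conj hF : F →+* F)

theorem uf (hF : Fintype.card F = q ^ 2) : UF F q (sg hF) :=
  ⟨by rw [Nat.card_eq_fintype_card, hF], fun _ => rfl⟩

theorem hB_apply (hF : Fintype.card F = q ^ 2) (u v : Fin 3 → F) : hB hF u v = hermForm 3 F q u v := rfl

theorem herm (hF : Fintype.card F = q ^ 2) : Herm (sg hF) (hB hF) where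
  smul_left a x y := by
    rw [hB_apply, hB_apply, herm_smul_left]
  symm x y := by
    rw [hB_apply, hB_apply, herm_swap hF x y]
    rfl
  nondeg x h := herm_nondeg hF fun v => h v

/-- the action of `SU₃ × μ` -/
noncomputable def rho (F : Type v) [Field F] (q : ℕ) : (SU 3 F q × Mu F q) →* ((Fin 3 → F) ≃ₗ[F] (Fin 3 → F)) :=
  MonoidHom.noncommCoprod
    ((Matrix.SpecialLinearGroup.toLin' : SpecialLinearGroup (Fin 3) F →* _).comp (SU 3 F q).subtype)
    ((DistribMulAction.toModuleAut F (Fin 3 → F) : Fˣ →* _).comp (Mu F q).subtype)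
    (fun g a => by
      refine LinearEquiv.ext fun x => ?_
      show (Matrix.SpecialLinearGroup.toLin' (g : SpecialLinearGroup (Fin 3) F)) ((a : Fˣ) • x) =
        (a : Fˣ) • (Matrix.SpecialLinearGroup.toLin' (g : SpecialLinearGroup (Fin 3) F)) x
      rw [Units.smul_def, Units.smul_def, map_smul])

omit [Fintype F] in
theorem rho_apply (g : SU 3 F q) (a : Mu F q) (x : Fin 3 → F) :
    rho F q (g, a) x = ((g : SpecialLinearGroup (Fin 3) F) : Matrix (Fin 3) (Fin 3) F) *ᵥ (((a : Fˣ) : F) • x) := rfl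

omit [Fintype F] in
theorem mu_pow (a : Mu F q) : ((a : Fˣ) : F) * ((a : Fˣ) : F) ^ q = 1 := by
  have h1 : (a : Fˣ) ^ (q + 1) = 1 := a.2
  rw [← pow_succ', ← Units.val_pow_eq_pow_val, h1, Units.val_one]

theorem isom_rho (hF : Fintype.card F = q ^ 2) (x : SU 3 F q × Mu F q) : IsoM (hB hF) (rho F q x) := by
  intro u v
  obtain ⟨g, a⟩ := x
  rw [rho_apply, rho_apply, hB_apply, hB_apply, (mem_SU_iff _).1 g.2, herm_smul_left, herm_smul_right, ← mul_assoc,
    mu_pow, one_mul]

/-- the Weil character -/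
noncomputable def om (F : Type v) [Field F] (q : ℕ) : SU 3 F q × Mu F q → ℂ :=
  fun x => (-1 : ℂ) ^ Module.finrank F (Fin 3 → F) * (-(q : ℂ)) ^ Module.finrank F (fixS (rho F q x))

theorem isCharacter_om (hF : Fintype.card F = q ^ 2) : IsCharacter (SU 3 F q × Mu F q) (om F q) :=
  weil_isCharacter (uf hF) (herm hF) (rho F q) (isom_rho hF)

/-! ### the norm of the restriction -/

theorem card_fixS (hF : Fintype.card F = q ^ 2) (a : (Fin 3 → F) ≃ₗ[F] (Fin 3 → F)) :
    Nat.card (fixS a) = q ^ (2 * Module.finrank F (fixS a)) := by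
  rw [Module.natCard_eq_pow_finrank (K := F), Nat.card_eq_fintype_card, hF, pow_mul]

theorem om_mul_conj (hF : Fintype.card F = q ^ 2) (x : SU 3 F q × Mu F q) :
    om F q x * conj (om F q x) = (Nat.card (fixS (rho F q x)) : ℂ) := by
  rw [card_fixS hF, om, map_mul, map_pow, map_pow, map_neg, map_neg, map_one, Complex.conj_natCast]
  have h1 : ((-1 : ℂ) ^ Module.finrank F (Fin 3 → F)) * ((-1 : ℂ) ^ Module.finrank F (Fin 3 → F)) = 1 := by
    rw [← mul_pow]
    norm_num
  have h2 : ((-(q : ℂ)) ^ Module.finrank F (fixS (rho F q x))) * ((-(q : ℂ)) ^ Module.finrank F (fixS (rho F q x))) =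
      ((q ^ (2 * Module.finrank F (fixS (rho F q x))) : ℕ) : ℂ) := by
    rw [← mul_pow]
    push_cast
    rw [pow_mul]
    ring
  rw [mul_mul_mul_comm, h1, h2, one_mul]

/-- the number of orbits -/
theorem card_orb [Fintype (SU 3 F q)] (hF : Fintype.card F = q ^ 2) :
    ∃ N : ℕ, N ≤ q + 1 ∧ ∑ g : SU 3 F q, Nat.card (fixS (rho F q (g, 1))) = N * Nat.card (SU 3 F q) := by
  classical
  have hsm' : ∀ (g : SU 3 F q) (x : Fin 3 → F),
      g • x = ((g : SpecialLinearGroup (Fin 3) F) : Matrix (Fin 3) (Fin 3) F) *ᵥ x := fun g x => rfl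
  have hsm : ∀ (g : SU 3 F q) (x : Fin 3 → F), g • x = rho F q (g, 1) x := fun g x => by
    rw [hsm', rho_apply, OneMemClass.coe_one, Units.val_one, one_smul]
  refine ⟨Fintype.card (Quotient (MulAction.orbitRel (SU 3 F q) (Fin 3 → F))), ?_, ?_⟩
  · have hfix : Fintype.card (Option {x : F // x ^ q = x}) = q + 1 := by
      rw [Fintype.card_option, ← Nat.card_eq_fintype_card, card_fixed hF]
    rw [← hfix]
    refine Fintype.card_le_of_injective (fun o : Quotient (MulAction.orbitRel (SU 3 F q) (Fin 3 → F)) =>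
      if o.out = 0 then none else some ⟨hermForm 3 F q o.out o.out, herm_self_pow hF _⟩) ?_
    intro o o' h
    rw [← Quotient.out_eq o, ← Quotient.out_eq o']
    apply Quotient.sound
    show MulAction.orbitRel (SU 3 F q) (Fin 3 → F) o.out o'.out
    rw [MulAction.orbitRel_apply]
    by_cases h0 : o.out = 0
    · by_cases h0' : o'.out = 0
      · rw [h0, h0']
        exact MulAction.mem_orbit_self _
      · simp [h0, h0'] at h
    · by_cases h0' : o'.out = 0
      · simp [h0, h0'] at h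
      · simp only [h0, h0', if_false, Option.some.injEq, Subtype.mk.injEq] at h
        obtain ⟨g, hg⟩ := su_trans hF h0' h0 h.symm
        exact ⟨g, (hsm' g _).trans hg⟩
  · have h1 := MulAction.sum_card_fixedBy_eq_card_orbits_mul_card_group (SU 3 F q) (Fin 3 → F)
    rw [Nat.card_eq_fintype_card, ← h1]
    refine Finset.sum_congr rfl fun g _ => ?_
    rw [← Nat.card_eq_fintype_card]
    refine Nat.card_congr (Equiv.subtypeEquivRight fun x => ?_)
    rw [mem_fixS, MulAction.mem_fixedBy, hsm]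

theorem norm_om [Fintype (SU 3 F q)] (hF : Fintype.card F = q ^ 2) :
    ∃ N : ℕ, N ≤ q + 1 ∧ classInner (fun g : SU 3 F q => om F q (g, 1)) (fun g => om F q (g, 1)) = N := by
  obtain ⟨N, hN, h⟩ := card_orb (q := q) hF
  refine ⟨N, hN, ?_⟩
  rw [classInner_def, Finset.sum_congr rfl fun g _ => om_mul_conj hF (g, 1), ← Nat.cast_sum, h, Nat.cast_mul,
    mul_comm, mul_assoc, mul_inv_cancel₀ card_ne_zero_complex, mul_one]

/-! ### the parts -/

theorem om_one_ne {a : Mu F q} (ha : a ≠ 1) : om F q (1, a) = -1 := by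
  have h1 : fixS (rho F q (1, a)) = ⊥ := by
    rw [Submodule.eq_bot_iff]
    intro x hx
    rw [mem_fixS, rho_apply] at hx
    have h2 : ((a : Fˣ) : F) • x = x := by simpa using hx
    have h3 : (((a : Fˣ) : F) - 1) • x = 0 := by rw [sub_smul, one_smul, h2, sub_self]
    rcases smul_eq_zero.1 h3 with h4 | h4
    · exact absurd (Subtype.ext (Units.ext (sub_eq_zero.1 h4))) ha
    · exact h4
  rw [om, h1, finrank_bot, pow_zero, mul_one, Module.finrank_fin_fun]
  norm_num

theorem om_one_one : om F q (1, 1) = (q : ℂ) ^ 3 := by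
  have h1 : fixS (rho F q (1, 1)) = ⊤ := by
    rw [Submodule.eq_top_iff']
    intro x
    rw [mem_fixS, rho_apply]
    simp
  rw [om, h1, finrank_top, Module.finrank_fin_fun]
  ring

theorem part_one [Fintype (Mu F q)] (hF : Fintype.card F = q ^ 2) (j : Mu F q → ℂ) :
    part (om F q) j 1 = ((q : ℂ) + 1)⁻¹ * (((q : ℂ) ^ 3 + 1) * conj (j 1)) - classInner 1 j := by
  classical
  have h1 : ∀ a : Mu F q, om F q (1, a) * conj (j a) =
      (if a = 1 then ((q : ℂ) ^ 3 + 1) * conj (j 1) else 0) - conj (j a) := by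
    intro a
    split_ifs with h
    · rw [h, om_one_one]
      ring
    · rw [om_one_ne h]
      ring
  rw [part, classInner_def, card_mu hF]
  rw [Finset.sum_congr rfl fun a _ => h1 a, Finset.sum_sub_distrib, Finset.sum_ite_eq' Finset.univ (1 : Mu F q),
    if_pos (Finset.mem_univ _), mul_sub]
  push_cast
  congr 2
  refine Finset.sum_congr rfl fun a _ => ?_
  rw [Pi.one_apply, one_mul]

theorem q_succ_ne : (q : ℂ) + 1 ≠ 0 := by
  exact_mod_cast Nat.succ_ne_zero q

theorem part_ne [Fintype (Mu F q)] (hF : Fintype.card F = q ^ 2) (j : IrrCharacter (Mu F q)) : part (om F q) j ≠ 0 := by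
  classical
  intro h0
  have h1 := congrFun h0 1
  rw [part_one hF, Pi.zero_apply] at h1
  have hq := two_le hF
  by_cases hj : (j : Mu F q → ℂ) = 1
  · rw [hj, classInner_irr_self isIrr_one, Pi.one_apply, map_one, mul_one] at h1
    have h2 : ((q : ℂ) ^ 3 + 1) = (q : ℂ) + 1 := by
      have := q_succ_ne (q := q)
      field_simp at h1
      linear_combination h1
    have h3 : q ^ 3 + 1 = q + 1 := by exact_mod_cast h2
    have h4 : q * q ≥ 2 * 2 := Nat.mul_le_mul hq hq
    nlinarith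
  · rw [classInner_irr_ne isIrr_one j.2 (fun h => hj h.symm), sub_zero] at h1
    rcases mul_eq_zero.1 h1 with h2 | h2
    · exact q_succ_ne (q := q) (inv_eq_zero.1 h2)
    · rcases mul_eq_zero.1 h2 with h3 | h3
      · have : q ^ 3 + 1 = 0 := by exact_mod_cast h3
        omega
      · rw [map_eq_zero] at h3
        exact isIrr_apply_one_ne_zero j.2 h3

theorem card_irr_mu (hF : Fintype.card F = q ^ 2) : Nat.card (IrrCharacter (Mu F q)) = q + 1 := by
  rw [card_irr, ← Nat.card_congr (ConjClasses.mkEquiv (α := Mu F q)), card_mu hF]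

/-- the irreducible Weil character of degree `q² - q` -/
theorem exists_weil (hF : Fintype.card F = q ^ 2) : ∃ θ : IrrCharacter (PSU 3 F q), (θ : PSU 3 F q → ℂ) 1 = (q : ℂ) ^ 2 - q := by
  classical
  have : Fintype (SU 3 F q) := Fintype.ofFinite _
  have : Fintype (Mu F q) := Fintype.ofFinite _
  have : Fintype (Subgroup.center (SU 3 F q)) := Fintype.ofFinite _
  obtain ⟨N, hN, hc⟩ := norm_om (q := q) hF
  have hirr : IsIrrCharacter (SU 3 F q) (part (om F q) (1 : Mu F q → ℂ)) :=
    irr_part (isCharacter_om hF) hc (by rw [card_irr_mu hF]; exact hN) (part_ne hF) ⟨1, isIrr_one⟩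
  have hdeg : part (om F q) (1 : Mu F q → ℂ) 1 = (q : ℂ) ^ 2 - q := by
    rw [part_one hF, classInner_irr_self isIrr_one, Pi.one_apply, map_one, mul_one]
    have := q_succ_ne (q := q)
    field_simp
    ring
  have hcen : ∀ z ∈ Subgroup.center (SU 3 F q), part (om F q) (1 : Mu F q → ℂ) z = (q : ℂ) ^ 2 - q := by
    intro z hz
    obtain ⟨c, hcn, hcq, rfl⟩ := (SUBasic.mem_center_SU_iff hF le_rfl z).1 hz
    rw [← hdeg, part, part]
    congr 1
    have hc0 : c ≠ 0 := by
      rintro rfl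
      rw [zero_pow (by omega)] at hcq
      exact zero_ne_one hcq
    let b : Mu F q := ⟨Units.mk0 c hc0, by
      rw [MonoidHom.mem_ker, powMonoidHom_apply]
      exact Units.ext (by rw [Units.val_pow_eq_pow_val, Units.val_mk0, hcq, Units.val_one])⟩
    conv_rhs => rw [← Equiv.sum_comp (Equiv.mulLeft b)]
    refine Finset.sum_congr rfl fun a _ => ?_
    have h1 : rho F q (SUBasic.suScalar q c hcn hcq, a) = rho F q (1, b * a) := by
      refine LinearEquiv.ext fun x => ?_
      rw [rho_apply, rho_apply, SUBasic.coe_suScalar]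
      funext i
      simp [b, mulVec_diagonal, mul_assoc]
    rw [Equiv.coe_mulLeft, om, om, h1]
    rfl
  have hne : (q : ℂ) ^ 2 - q ≠ 0 := by
    rw [← hdeg]
    exact isIrr_apply_one_ne_zero hirr
  have hsum : ∑ n : Subgroup.center (SU 3 F q), part (om F q) (1 : Mu F q → ℂ) n ≠ 0 := by
    rw [Finset.sum_congr rfl fun n _ => hcen n.1 n.2, Finset.sum_const, nsmul_eq_mul]
    refine mul_ne_zero ?_ hne
    rw [Finset.card_univ]
    exact_mod_cast Fintype.card_ne_zero
  obtain ⟨χ, hχ⟩ := Blocks.Deflate.exists_deflation (Subgroup.center (SU 3 F q)) _ hirr hsum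
  refine ⟨χ, ?_⟩
  rw [← hdeg, hχ]
  rfl

/-- **`QRow` for `PSU₃(q)`**, `q = 2, 5 mod 9`. -/
theorem qrow_psu (hF : Fintype.card F = q ^ 2) (hq : q % 9 = 2 ∨ q % 9 = 5) {X : Type u} [Group X] [Finite X]
    (e : X ≃* PSU 3 F q) : Cfsg.Agent.H629.T9.QRow X := by
  obtain ⟨θ, hθ⟩ := exists_weil (q := q) hF
  refine qrow_psu_of hF hq e ⟨⟨(θ : PSU 3 F q → ℂ) ∘ e.toMonoidHom, isIrr_comp _ e.surjective θ.2⟩, Or.inl ?_⟩
  have h1 : charDegree ((θ : PSU 3 F q → ℂ) ∘ e.toMonoidHom) = q ^ 2 - q := by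
    rw [charDegree, Function.comp_apply, map_one, hθ]
    have hle : q ≤ q ^ 2 := by
      rw [sq]
      exact Nat.le_mul_self q
    have h2 : ((q : ℂ) ^ 2 - q) = ((q ^ 2 - q : ℕ) : ℂ) := by
      rw [Nat.cast_sub hle]
      push_cast
      rfl
    rw [h2, Complex.natCast_re, Nat.floor_natCast]
  show charDegree ((θ : PSU 3 F q → ℂ) ∘ e.toMonoidHom) % 9 = 2
  rw [h1]
  rcases hq with h | h
  · obtain ⟨k, hk⟩ : ∃ k, q = 9 * k + 2 := ⟨q / 9, by omega⟩
    have h3 : q ^ 2 - q = 9 * (9 * k * k + 3 * k) + 2 := by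
      rw [hk]
      apply Nat.sub_eq_of_eq_add
      ring
    rw [h3]
    omega
  · obtain ⟨k, hk⟩ : ∃ k, q = 9 * k + 5 := ⟨q / 9, by omega⟩
    have h3 : q ^ 2 - q = 9 * (9 * k * k + 9 * k + 2) + 2 := by
      rw [hk]
      apply Nat.sub_eq_of_eq_add
      ring
    rw [h3]
    omega

end

end Cfsg.Agent.H644.T9
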